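/-
Hm, chapter E: a consequence of Moore's presentation of `A₅`.
-/
import Cfsg.Agent.Hm.E2

set_option autoImplicit false

namespace Cfsg.Agent.Hm

variable {G : Type*} [Group G]

theorem moore_inv {a b c : G} (aa : a * a = 1) (bb : b * b = 1) (cc : c * c = 1)
    (h1 : (a * b) ^ 3 = 1) (h2 : (c * b) ^ 3 = 1) (h3 : (a * c * b) ^ 3 = 1) : (a * c) ^ 5 = 1 := by
  have ha : ∀ x, a * (a * x) = x := fun x => by rw [← mul_assoc, aa, one_mul]
  have hb : ∀ x, b * (b * x) = x := fun x => by rw [← mul_assoc, bb, one_mul]
  have hc : ∀ x, c * (c * x) = x := fun x => by rw [← mul_assoc, cc, one_mul]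
  have r1 : a * b * a * b * a * b = 1 := by simpa only [pow_succ, pow_zero, one_mul, mul_assoc] using h1
  have r2 : c * b * c * b * c * b = 1 := by simpa only [pow_succ, pow_zero, one_mul, mul_assoc] using h2
  have r3 : a * c * b * a * c * b * a * c * b = 1 := by
    simpa only [pow_succ, pow_zero, one_mul, mul_assoc] using h3
  have r4 : b * c * a * b * c * a * b * c * a = 1 := by
    have : b * c * a * b * c * a * b * c * a * (a * c * b * a * c * b * a * c * b) = 1 := by
      simp only [mul_assoc, ha, hb, hc, bb]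
    rwa [r3, mul_one] at this
  have e : (a * c) ^ 5 = (a * c * a * (c * b * c * b * c * b) * (a * c * a)) *
      (a * b * (b * c * a * b * c * a * b * c * a) * (b * a)) *
      (a * b * a * c * a * (a * b * a * b * a * b) * (a * c * a * b * a)) *
      (a * b * a * c * a * b * (a * c * b * a * c * b * a * c * b) * (b * a * c * a * b * a)) *
      (a * b * a * c * a * c * (a * b * a * b * a * b) * (c * a * c * a * b * a)) *
      (a * b * a * c * a * c * b * a * (b * c * a * b * c * a * b * c * a) *
        (a * b * c * a * c * a * b * a)) *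
      (a * b * a * c * a * (c * b * c * b * c * b) * (a * c * a * b * a)) *
      (a * b * a * b * (b * c * a * b * c * a * b * c * a) * (b * a * b * a)) *
      (a * b * a * b * a * (c * b * c * b * c * b) * (a * b * a * b * a)) *
      (a * b * a * b * a * b) := by
    simp only [pow_succ, pow_zero, one_mul, mul_assoc, ha, hb, hc, aa, bb, cc, mul_one]
  rw [e, r1, r2, r3, r4]
  simp only [mul_assoc, ha, hb, hc, aa, mul_one]

theorem moore5 {x t j : G} (x3 : x ^ 3 = 1) (tt : t * t = 1) (jj : j * j = 1)
    (h1 : (t * x) ^ 3 = 1) (h2 : (t * j) ^ 3 = 1) (h3 : x * j * (x * j) = 1) :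
    (t * x * j) ^ 5 = 1 := by
  have e : x * j * j = x := by rw [mul_assoc, jj, mul_one]
  rw [mul_assoc]
  exact moore_inv tt jj h3 h2 (by rwa [e]) (by rwa [mul_assoc, e])

end Cfsg.Agent.Hm
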